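import Cfsg.Agent.Lib.Helper9.AschU.Base
import Cfsg.Agent.Lib.Helper43.PA.H90
import Cfsg.Agent.Lib.Helper43.PA.FieldCent
import Cfsg.Agent.Lib.Helper43.PA.GFCent
import Cfsg.Agent.Lib.Helper43.PA.Coset
import Cfsg.Agent.Lib.Helper55.Asch.L9e

set_option autoImplicit false

/-! # A3 : a group of similarities of a bilinear form inside `GU` lies in a subfield group -/

namespace Cfsg.Agent.Lib.Helper62.AschU

open Cfsg Cfsg.Geo Matrix Cfsg.Agent.Lib.Helper13 Cfsg.Agent.Lib.Helper13.Asch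
  Cfsg.Agent.Lib.Helper5.SUAsch Cfsg.Agent.Lib.Helper9.AschU
open scoped Kronecker MatrixGroups

variable {F : Type*} [Field F]

/-- a skew matrix with zero diagonal is alternating -/
lemma alt_of_skew {ι : Type*} [Fintype ι] (K : Matrix ι ι F) (hs : Kᵀ = -K) (hd : ∀ a, K a a = 0)
    (w : ι → F) : w ⬝ᵥ (K *ᵥ w) = 0 := by
  have h1 : w ⬝ᵥ (K *ᵥ w) = ∑ p : ι × ι, w p.1 * K p.1 p.2 * w p.2 := by
    rw [Fintype.sum_prod_type]
    simp only [dotProduct, Matrix.mulVec, Finset.mul_sum, mul_assoc]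
  rw [h1]
  apply Finset.sum_involution (fun p _ => (p.2, p.1))
  · intro p _
    have : K p.2 p.1 = - K p.1 p.2 := by
      have := congrFun (congrFun hs p.1) p.2
      simpa using this
    show w p.1 * K p.1 p.2 * w p.2 + w p.2 * K p.2 p.1 * w p.1 = 0
    rw [this]
    ring
  · intro p _ hp hpe
    apply hp
    have : p.2 = p.1 := congrArg Prod.fst hpe
    rw [this, hd]
    simp
  · intro p _
    exact Finset.mem_univ _
  · intro p _
    rfl

/-- an invertible alternating matrix has even size -/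
lemma even_of_alt {n : ℕ} (B : Matrix (Fin n) (Fin n) F) (hB : IsUnit B.det) (hs : Bᵀ = -B)
    (hd : ∀ a, B a a = 0) : Even n := by
  have hsk : ∀ v w : Fin n → F, v ⬝ᵥ (B *ᵥ w) = - (w ⬝ᵥ (B *ᵥ v)) := by
    intro v w
    rw [dotProduct_mulVec, ← mulVec_transpose, hs, neg_mulVec, neg_dotProduct, dotProduct_comm]
  have hinj : ∀ v : Fin n → F, v ≠ 0 → B *ᵥ v ≠ 0 := by
    intro v hv h0
    apply hv
    have := Matrix.mulVec_injective_of_isUnit ((Matrix.isUnit_iff_isUnit_det B).2 hB)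
    exact this (by rw [h0, mulVec_zero])
  have hnd : ∀ v : Fin n → F, v ≠ 0 → ∃ x, x ⬝ᵥ (B *ᵥ v) ≠ 0 := by
    intro v hv
    by_contra hcon
    push Not at hcon
    apply hinj v hv
    funext i
    have := hcon (Pi.single i 1)
    simpa using this
  have := Cfsg.Agent.Lib.Helper55.Asch.even_card_of_symplectic
    (fun u v : Fin n → F => u ⬝ᵥ (B *ᵥ v))
    { bilinear :=
        { add_left := fun x y v => add_dotProduct _ _ _
          smul_left := fun c x v => by simp [smul_dotProduct]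
          add_right := fun v x y => by simp [mulVec_add, dotProduct_add]
          smul_right := fun c v x => by simp [mulVec_smul, dotProduct_smul] }
      skew := hsk
      alternating := alt_of_skew B hs hd
      nondegenerate := by
        intro v hv
        obtain ⟨x, hx⟩ := hnd v hv
        refine ⟨⟨x, hx⟩, ⟨x, ?_⟩⟩
        show v ⬝ᵥ (B *ᵥ x) ≠ 0
        rw [hsk]
        exact neg_ne_zero.2 hx }
  simpa using this

/-- the descent datum: `σ(P) = m B P` -/
lemma exists_descent {n : ℕ} (hn : 1 ≤ n) (σ : F ≃+* F) (hord : orderOf σ = 2)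
    (hN : ∀ c : F, σ c = c → ∃ l, l * σ l = c)
    (B : Matrix (Fin n) (Fin n) F) (hB : IsUnit B.det) (a : F) (hBB : B.map σ * B = a • 1) :
    ∃ (P : GL (Fin n) F) (m : F), m ≠ 0 ∧ P.1.map σ = m • (B * P.1) := by
  have hσσ : ∀ x, σ (σ x) = x := by
    intro x
    have h2 : σ ^ 2 = 1 := hord ▸ pow_orderOf_eq_one σ
    have := RingEquiv.congr_fun h2 x
    simpa [pow_two] using this
  have hmm : ∀ X : Matrix (Fin n) (Fin n) F, (X.map σ).map σ = X := by
    intro X
    ext i j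
    exact hσσ _
  have i0 : Fin n := ⟨0, hn⟩
  have hBu : IsUnit B := (Matrix.isUnit_iff_isUnit_det B).2 hB
  have ha : a ≠ 0 := by
    rintro rfl
    rw [zero_smul] at hBB
    have h1 : B.map σ = 0 := by
      have := hBu.mul_left_eq_zero.1 hBB
      exact this
    have h2 : B = 0 := by
      rw [← hmm B, h1]
      ext i j
      simp
    rw [h2] at hBu
    have : Nonempty (Fin n) := ⟨i0⟩
    exact not_isUnit_zero hBu
  have hBB' : B * B.map σ = a • 1 := by
    have h1 : (a⁻¹ • B.map σ) * B = 1 := by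
      rw [Matrix.smul_mul, hBB, smul_smul, inv_mul_cancel₀ ha, one_smul]
    have h2 := mul_eq_one_comm.1 h1
    rw [Matrix.mul_smul] at h2
    rw [← one_smul F (B * B.map σ), ← mul_inv_cancel₀ ha, ← smul_smul, h2]
  have hσa : σ a = a := by
    have h1 := congrArg (fun X : Matrix (Fin n) (Fin n) F => X.map σ) hBB
    simp only [Matrix.map_mul, hmm] at h1
    rw [hBB'] at h1
    have := congrFun (congrFun h1 i0) i0
    simpa using this.symm
  obtain ⟨l, hl⟩ := hN a⁻¹ (by rw [map_inv₀, hσa])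
  have hl0 : l ≠ 0 := by
    rintro rfl
    rw [zero_mul] at hl
    exact inv_ne_zero ha hl.symm
  have hmapsmul : ∀ (c : F) (X : Matrix (Fin n) (Fin n) F), (c • X).map σ = σ c • X.map σ := by
    intro c X
    ext i j
    simp
  have hC1 : (l • B.map σ) * ((l • B.map σ).map σ) = 1 := by
    rw [hmapsmul, hmm, Matrix.smul_mul, Matrix.mul_smul, hBB, smul_smul, smul_smul, hl,
      inv_mul_cancel₀ ha, one_smul]
  let C : GL (Fin n) F := ⟨l • B.map σ, (l • B.map σ).map σ, hC1, mul_eq_one_comm.1 hC1⟩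
  have hnrm : Cfsg.Agent.Lib.Helper43.PA.nrm σ C 2 = 1 := by
    rw [Cfsg.Agent.Lib.Helper43.PA.nrm_succ, Cfsg.Agent.Lib.Helper43.PA.nrm_succ,
      Cfsg.Agent.Lib.Helper43.PA.nrm_zero, map_one, mul_one]
    apply Units.ext
    exact hC1
  obtain ⟨P, hP⟩ := Cfsg.Agent.Lib.Helper43.PA.hilbert90_GL σ C 2 hord (by norm_num) hnrm
  refine ⟨P, σ l, by simpa using hl0, ?_⟩
  have h1 : C * Cfsg.Agent.Lib.Helper43.PA.mapGL σ P = P := by
    rw [hP, inv_mul_cancel_right]
  have h2 : (l • B.map σ) * P.1.map σ = P.1 := congrArg Units.val h1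
  have h3 := congrArg (fun X : Matrix (Fin n) (Fin n) F => X.map σ) h2
  simp only [Matrix.map_mul, hmm, hmapsmul] at h3
  rw [← h3, Matrix.smul_mul]

open Cfsg.Agent.Lib.Helper43.PA in
/-- unitary similarities of `B` lie in the subfield group of the descent datum -/
lemma mem_subfield_of_descent {n : ℕ} (hn : 1 ≤ n) (σ : F ≃+* F) (F₀ : Subfield F)
    (hF₀ : ∀ x, x ∈ F₀ ↔ σ x = x) (B : Matrix (Fin n) (Fin n) F) (hB : IsUnit B.det)
    (P : GL (Fin n) F) (m : F) (hm : m ≠ 0) (hP : P.1.map σ = m • (B * P.1))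
    (h : GL (Fin n) F) (hU : h.1ᵀ * h.1.map σ = 1) (c : F) (hc : h.1ᵀ * B * h.1 = c • B) :
    h ∈ subfieldSubgroup F₀ P := by
  have i0 : Fin n := ⟨0, hn⟩
  have : Nonempty (Fin n) := ⟨i0⟩
  have hBu : IsUnit B := (Matrix.isUnit_iff_isUnit_det B).2 hB
  have hc0 : c ≠ 0 := by
    rintro rfl
    rw [zero_smul] at hc
    have h1 : IsUnit (h.1ᵀ * B * h.1) :=
      (((Matrix.isUnit_transpose _).2 h.isUnit).mul hBu).mul h.isUnit
    rw [hc] at h1
    exact not_isUnit_zero h1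
  have hU' : h.1.map σ * h.1ᵀ = 1 := mul_eq_one_comm.1 hU
  have hBh : B * h.1 = c • (h.1.map σ * B) := by
    calc B * h.1 = (h.1.map σ * h.1ᵀ) * B * h.1 := by rw [hU', one_mul]
      _ = h.1.map σ * (h.1ᵀ * B * h.1) := by simp only [mul_assoc]
      _ = c • (h.1.map σ * B) := by rw [hc, Matrix.mul_smul]
  set h₀ : GL (Fin n) F := P⁻¹ * h * P with hh₀
  have hPh : P.1 * h₀.1 = h.1 * P.1 := by
    rw [← Units.val_mul, ← Units.val_mul, hh₀]
    congr 1
    group
  have key : h₀.1.map σ = c⁻¹ • h₀.1 := by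
    have hPu : IsUnit (P.1.map σ) := (mapGL σ P).isUnit
    apply hPu.mul_left_cancel
    rw [← Matrix.map_mul, hPh, Matrix.map_mul, hP, Matrix.mul_smul, Matrix.mul_smul,
      Matrix.smul_mul, mul_assoc B, hPh, ← mul_assoc, ← mul_assoc, hBh, Matrix.smul_mul,
      smul_smul c⁻¹, smul_smul]
    congr 1
    field_simp
  obtain ⟨i, j, hx⟩ : ∃ i j, h₀.1 i j ≠ 0 := by
    by_contra hcon
    push Not at hcon
    have h0 : h₀.1 = 0 := by ext i j; exact hcon i j
    have := h₀.isUnit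
    rw [h0] at this
    exact not_isUnit_zero this
  set x : F := h₀.1 i j with hxdef
  have hσx : σ x = c⁻¹ * x := by
    have := congrFun (congrFun key i) j
    simpa using this
  let xu : Fˣ := Units.mk0 x hx
  have hfix : mapGL σ (scGL xu⁻¹ * h₀) = scGL xu⁻¹ * h₀ := by
    apply Units.ext
    rw [mapGL_coe, scGL_mul_coe]
    have : ((xu⁻¹ : Fˣ) : F) = x⁻¹ := by simp [xu]
    rw [this]
    ext a b
    have hab : σ (h₀.1 a b) = c⁻¹ * h₀.1 a b := by
      have := congrFun (congrFun key a) b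
      simpa using this
    simp only [Matrix.map_apply, Matrix.smul_apply, smul_eq_mul, map_mul, map_inv₀, hσx, hab]
    field_simp
  obtain ⟨g₀, hg₀⟩ := (exists_map_eq (F₀.subtype) σ (fun y => by
    rw [← hF₀]
    constructor
    · intro hy
      exact ⟨⟨y, hy⟩, rfl⟩
    · rintro ⟨z, rfl⟩
      exact z.2) _).1 hfix
  unfold subfieldSubgroup
  refine Subgroup.mem_map.2 ⟨h₀, ?_, ?_⟩
  · have e : h₀ = (scGL xu⁻¹ * h₀) * scGL xu := by
      rw [← scGL_comm, ← mul_assoc, ← map_mul, mul_inv_cancel, map_one, one_mul]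
    rw [e]
    exact Subgroup.mul_mem_sup ⟨g₀, hg₀⟩ ⟨xu, rfl⟩
  · show P * h₀ * P⁻¹ = h
    rw [hh₀]
    group

variable [Fintype F] {n q : ℕ}

open Cfsg.Agent.Lib.Helper43.PA in
/-- **A3** -/
theorem ucls_of_gram (hF : Fintype.card F = q ^ 2) (hn : 2 ≤ n) {H : Subgroup (GL (Fin n) F)}
    (hH : H ≤ GU n F q) (B : Matrix (Fin n) (Fin n) F) (hB : IsUnit B.det)
    (hsym : (Bᵀ = B ∧ Odd q) ∨ (Bᵀ = -B ∧ ∀ i, B i i = 0)) (a : F)
    (hBB : B.map (fun x => x ^ q) * B = a • 1)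
    (hsim : ∀ h ∈ H, ∃ c : F, (h : Matrix (Fin n) (Fin n) F)ᵀ * B *
      (h : Matrix (Fin n) (Fin n) F) = c • B) : UCls n q H := by
  classical
  have hinv : Function.Involutive (frobQ hF) := fun x => by simp [pow_q_pow_q hF]
  let σ : F ≃+* F := RingEquiv.ofBijective (frobQ hF) hinv.bijective
  have hσ : ∀ x, σ x = x ^ q := fun x => rfl
  have hσ2 : σ ^ 2 = 1 := by
    ext x
    rw [pow_two, RingAut.mul_apply, RingAut.one_apply, hσ, hσ, pow_q_pow_q hF]
  have hσ1 : σ ≠ 1 := by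
    intro h
    apply frobQ_ne_id hF
    ext x
    have := RingEquiv.congr_fun h x
    simpa [hσ] using this
  have hord : orderOf σ = 2 := orderOf_eq_prime hσ2 hσ1
  have hfun : (fun x : F => x ^ q) = ⇑σ := by funext x; exact (hσ x).symm
  rw [hfun] at hBB
  obtain ⟨F₀, hF₀, hcard⟩ := exists_fixedSubfield hF
  have hF₀' : ∀ x, x ∈ F₀ ↔ σ x = x := fun x => by rw [hF₀, hσ]
  obtain ⟨P, m, hm, hP⟩ := exists_descent (by omega) σ hord (fun c hc => by
    obtain ⟨l, hl⟩ := norm_surjective hF c (by rw [← hσ, hc])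
    exact ⟨l, by rw [hσ, ← hl, pow_succ']⟩) B hB a hBB
  have hle : H ≤ subfieldSubgroup F₀ P := by
    intro h hh
    obtain ⟨c, hc⟩ := hsim h hh
    exact mem_subfield_of_descent (by omega) σ F₀ hF₀' B hB P m hm hP h
      ((mem_GU_iff_matrix σ hσ h).1 (hH hh)) c hc
  have hval : ∀ u v : Fin n → F, (∀ i, v i ∈ F₀) →
      hermForm n F q (P.1 *ᵥ u) (P.1 *ᵥ v) = m * ((P.1 *ᵥ u) ⬝ᵥ (B *ᵥ (P.1 *ᵥ v))) := by
    intro u v hv
    have hv' : ⇑σ ∘ v = v := by
      funext i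
      exact (hF₀' _).1 (hv i)
    rw [hermForm_eq σ hσ, comp_mulVec, hv', hP, smul_mulVec, dotProduct_smul, smul_eq_mul,
      mulVec_mulVec]
  have hherm := (isUnitaryFormPow_hermForm (n := n) hF).herm
  rcases hsym with ⟨hs, hodd⟩ | ⟨hs, hd⟩
  · refine Or.inr (Or.inr (Or.inr (Or.inr (Or.inr (Or.inl ⟨F₀, P, hodd, hcard, ?_, hle⟩)))))
    intro u v hu hv
    rw [one_mul, hF₀, ← hherm, hval v u hu, hval u v hv]
    congr 1
    rw [dotProduct_mulVec, ← mulVec_transpose, hs, dotProduct_comm]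
  · obtain ⟨z, hz0, hz⟩ := exists_skew hF
    refine Or.inr (Or.inr (Or.inr (Or.inr (Or.inr (Or.inr (Or.inl
      ⟨F₀, P, z, even_of_alt B hB hs hd, hcard, hz0, hz, ?_, ?_, hle⟩))))))
    · intro u v hu hv
      have hz' : z ^ q = -z := by linear_combination hz
      rw [hF₀, mul_pow, ← hherm, hval v u hu, hval u v hv, hz']
      have : (P.1 *ᵥ v) ⬝ᵥ (B *ᵥ (P.1 *ᵥ u)) = - ((P.1 *ᵥ u) ⬝ᵥ (B *ᵥ (P.1 *ᵥ v))) := by
        rw [dotProduct_mulVec, ← mulVec_transpose, hs, neg_mulVec, neg_dotProduct,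
          dotProduct_comm]
      rw [this]
      ring
    · intro u hu
      rw [hval u u hu, alt_of_skew B hs hd, mul_zero]

end Cfsg.Agent.Lib.Helper62.AschU
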