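/-
Piece U2A of helper9's unitary Aschbacher farm (su_pieces).
-/
import Cfsg.Agent.Lib.Helper9.AschU.Defs
import Cfsg.Agent.Lib.Helper73.Asch.L2a

set_option autoImplicit false

namespace Cfsg.Agent.Lib.Helper62.AschU

open Cfsg Cfsg.Geo Matrix Cfsg.Agent.Lib.Helper13 Cfsg.Agent.Lib.Helper13.Asch
  Cfsg.Agent.Lib.Helper5.SUAsch Cfsg.Agent.Lib.Helper9.AschU
open scoped Kronecker MatrixGroups

section general

variable {ι : Type} [Fintype ι] [DecidableEq ι] {F : Type*} [Field F]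

open Cfsg.Agent.Lib.Helper73.Asch in
/-- L2a of helper73 with the extra information on the decomposition. -/
theorem imprimitive_of_set' (H : Subgroup (GL ι F)) (hirr : ActsIrreducibly (matrixSet H))
    (𝒟 : Set (Submodule F (ι → F))) (hne : ∀ W ∈ 𝒟, W ≠ ⊥) (hind : sSupIndep 𝒟)
    (h2 : ∃ W ∈ 𝒟, ∃ W' ∈ 𝒟, W ≠ W')
    (hperm : ∀ h ∈ H, ∀ W ∈ 𝒟, W.map (Matrix.toLin' (h : Matrix ι ι F)) ∈ 𝒟) :
    ∃ (t m : ℕ) (D : Fin t → Submodule F (ι → F)), IsMDecomposition m D ∧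
      H ≤ decompositionStabilizer D ∧ (∀ i, D i ∈ 𝒟) ∧ Function.Injective D ∧
      (∀ W ∈ 𝒟, ∃ i, D i = W) ∧
      (∀ W0 ∈ 𝒟, ∀ W ∈ 𝒟, ∃ h ∈ H, W = W0.map (Matrix.toLin' (h : Matrix ι ι F))) := by
  have horbit : ∀ W0 ∈ 𝒟, ∀ W ∈ 𝒟, ∃ h ∈ H, W = W0.map (Matrix.toLin' (h : Matrix ι ι F)) := by
    intro W0 hW0
    set O : Set (Submodule F (ι → F)) :=
      {W | ∃ h ∈ H, W = W0.map (Matrix.toLin' (h : Matrix ι ι F))} with hO
    have hOD : O ⊆ 𝒟 := by
      rintro _ ⟨h, hh, rfl⟩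
      exact hperm h hh W0 hW0
    have hW0O : W0 ∈ O := ⟨1, H.one_mem, by simp⟩
    have hOtop : sSup O = ⊤ := by
      have hinv : ∀ s ∈ matrixSet H, (sSup O).map (Matrix.toLin' s) ≤ sSup O := by
        rintro _ ⟨g, hg, rfl⟩
        rw [sSup_eq_iSup, Submodule.map_iSup]
        refine iSup_le fun S => ?_
        rw [Submodule.map_iSup]
        refine iSup_le fun hS => ?_
        rw [← sSup_eq_iSup]
        obtain ⟨h, hh, rfl⟩ := hS
        refine le_sSup ⟨g * h, H.mul_mem hg hh, ?_⟩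
        rw [Units.val_mul, Matrix.toLin'_mul, Submodule.map_comp]
      rcases hirr _ hinv with h | h
      · exact absurd (le_bot_iff.1 (h ▸ le_sSup hW0O)) (hne W0 hW0)
      · exact h
    intro W hW
    by_contra hWO
    have hsub : O ⊆ 𝒟 \ {W} := fun X hX => ⟨hOD hX, fun hXW => hWO (hXW ▸ hX)⟩
    have hd := hind hW
    have htop : sSup (𝒟 \ {W}) = ⊤ := top_le_iff.1 (hOtop ▸ sSup_le_sSup hsub)
    rw [htop] at hd
    exact hne W hW (disjoint_top.1 hd)
  obtain ⟨W0, hW0, W1, hW1, h01⟩ := h2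
  have hDtop : sSup 𝒟 = ⊤ := by
    have hinv : ∀ s ∈ matrixSet H, (sSup 𝒟).map (Matrix.toLin' s) ≤ sSup 𝒟 := by
      rintro _ ⟨g, hg, rfl⟩
      rw [sSup_eq_iSup, Submodule.map_iSup]
      refine iSup_le fun S => ?_
      rw [Submodule.map_iSup]
      refine iSup_le fun hS => ?_
      rw [← sSup_eq_iSup]
      exact le_sSup (hperm g hg S hS)
    rcases hirr _ hinv with h | h
    · exact absurd (le_bot_iff.1 (h ▸ le_sSup hW0)) (hne W0 hW0)
    · exact h
  have hfin : 𝒟.Finite := WellFoundedGT.finite_of_sSupIndep hind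
  have : Finite 𝒟 := hfin
  have : Fintype 𝒟 := Fintype.ofFinite 𝒟
  set t := Fintype.card 𝒟 with ht
  let e : 𝒟 ≃ Fin t := Fintype.equivFin 𝒟
  let D : Fin t → Submodule F (ι → F) := fun i => ((e.symm i : 𝒟) : Submodule F (ι → F))
  refine ⟨t, Module.finrank F W0, D, ⟨?_, ?_, ?_, ?_, ?_⟩, ?_, fun i => (e.symm i).2, ?_, ?_,
    horbit⟩
  · have : 1 < Fintype.card 𝒟 :=
      Fintype.one_lt_card_iff.2 ⟨⟨W0, hW0⟩, ⟨W1, hW1⟩, fun h => h01 (congrArg Subtype.val h)⟩
    exact this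
  · exact Module.finrank_pos_iff.2 (Submodule.nontrivial_iff_ne_bot.2 (hne W0 hW0))
  · intro i
    obtain ⟨h, hh, hD⟩ := horbit W0 hW0 _ (e.symm i).2
    show Module.finrank F ((e.symm i : 𝒟) : Submodule F (ι → F)) = _
    rw [hD]
    exact (LinearEquiv.finrank_eq
      (Submodule.equivMapOfInjective _ (toLin'_gl_injective h) W0)).symm
  · exact ((sSupIndep_iff 𝒟).1 hind).comp e.symm.injective
  · rw [eq_top_iff, ← hDtop]
    refine sSup_le fun W hW => ?_
    have : D (e ⟨W, hW⟩) = W := by simp [D]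
    rw [← this]
    exact le_iSup D _
  · intro g hg
    let f : 𝒟 → 𝒟 := fun W => ⟨(W : Submodule F (ι → F)).map (Matrix.toLin' (g : Matrix ι ι F)),
      hperm g hg W W.2⟩
    have hf : Function.Injective f := by
      intro W W' hWW
      have := congrArg Subtype.val hWW
      exact Subtype.ext (Submodule.map_injective_of_injective (toLin'_gl_injective g) this)
    have hfb : Function.Bijective f := Finite.injective_iff_bijective.1 hf
    refine ⟨(e.symm.trans (Equiv.ofBijective f hfb)).trans e, fun i => ?_⟩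
    simp [D, f]
  · intro i j hij
    exact e.symm.injective (Subtype.ext hij)
  · intro W hW
    exact ⟨e ⟨W, hW⟩, by simp [D]⟩

end general

variable {F : Type*} [Field F] [Fintype F] {n q : ℕ}

omit [Fintype F] in
theorem hermForm_zero_left' (v : Fin n → F) : hermForm n F q 0 v = 0 := by
  simp [hermForm]

omit [Fintype F] in
theorem exists_hermForm_ne_zero (w : Fin n → F) (hw : w ≠ 0) : ∃ x, hermForm n F q x w ≠ 0 := by
  obtain ⟨k, hk⟩ : ∃ k, w k ≠ 0 := by
    by_contra hc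
    push Not at hc
    exact hw (funext hc)
  refine ⟨Pi.single k 1, ?_⟩
  rw [hermForm_single_left]
  exact pow_ne_zero _ hk

theorem hermForm_eq_zero_swap (hF : Fintype.card F = q ^ 2) {u v : Fin n → F}
    (h : hermForm n F q u v = 0) : hermForm n F q v u = 0 := by
  have hq : q ≠ 0 := by
    have := two_le_of_card_sq hF
    omega
  rw [← hermForm_swap hF, h, zero_pow hq]

/-- a member of an orthogonal decomposition is nondegenerate -/
theorem nondegenerateOn_of_orth (hF : Fintype.card F = q ^ 2) {t : ℕ}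
    (D : Fin t → Submodule F (Fin n → F)) (htop : ⨆ i, D i = ⊤)
    (horth : ∀ i j, i ≠ j → AreOrthogonalFor (hermForm n F q) (D i) (D j)) (i : Fin t) :
    IsNondegenerateOn (hermForm n F q) (D i) := by
  have key : ∀ w ∈ D i, w ≠ 0 → ∃ x ∈ D i, hermForm n F q x w ≠ 0 := by
    intro w hw hw0
    by_contra hc
    push Not at hc
    obtain ⟨x, hx⟩ := exists_hermForm_ne_zero (q := q) w hw0
    apply hx
    have hxtop : x ∈ ⨆ i, D i := by rw [htop]; trivial
    refine Submodule.iSup_induction D (motive := fun x => hermForm n F q x w = 0) hxtop ?_ ?_ ?_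
    · intro j y hy
      by_cases hji : j = i
      · subst hji
        exact hc y hy
      · exact horth j i hji y hy w hw
    · exact hermForm_zero_left' w
    · intro y z hy hz
      rw [hermForm_add_left, hy, hz, add_zero]
  intro w hw hw0
  obtain ⟨x, hx, hxw⟩ := key w hw hw0
  exact ⟨⟨x, hx, hxw⟩, ⟨x, hx, fun h => hxw (hermForm_eq_zero_swap hF h)⟩⟩

/-- U2A -/
theorem ucls_of_orth_set (hF : Fintype.card F = q ^ 2) {H : Subgroup (GL (Fin n) F)}
    (hH : H ≤ GU n F q) (hirr : ActsIrreducibly (matrixSet H))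
    (𝒟 : Set (Submodule F (Fin n → F))) (hne : ∀ W ∈ 𝒟, W ≠ ⊥) (hind : sSupIndep 𝒟)
    (h2 : ∃ W ∈ 𝒟, ∃ W' ∈ 𝒟, W ≠ W')
    (hperm : ∀ h ∈ H, ∀ W ∈ 𝒟, W.map (Matrix.toLin' (h : Matrix (Fin n) (Fin n) F)) ∈ 𝒟)
    (horth : ∀ W ∈ 𝒟, ∀ X ∈ 𝒟, X ≠ W → AreOrthogonalFor (hermForm n F q) W X) :
    UCls n q H := by
  obtain ⟨t, m, D, hD, hHD, hmem, hinj, -, -⟩ := imprimitive_of_set' H hirr 𝒟 hne hind h2 hperm
  have horthD : ∀ i j, i ≠ j → AreOrthogonalFor (hermForm n F q) (D i) (D j) := by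
    intro i j hij
    exact horth _ (hmem i) _ (hmem j) (fun h => hij (hinj h).symm)
  exact Or.inr (Or.inr (Or.inl ⟨t, m, D,
    ⟨hD, nondegenerateOn_of_orth hF D hD.iSup_eq_top horthD, horthD⟩, hHD⟩))

end Cfsg.Agent.Lib.Helper62.AschU
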