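/-
Piece U2B of helper9's unitary Aschbacher farm (su_pieces).
-/
import Cfsg.Agent.Lib.Helper62.AschU.U2A

set_option autoImplicit false

namespace Cfsg.Agent.Lib.Helper62.AschU

open Cfsg Cfsg.Geo Matrix Cfsg.Agent.Lib.Helper13 Cfsg.Agent.Lib.Helper13.Asch
  Cfsg.Agent.Lib.Helper5.SUAsch Cfsg.Agent.Lib.Helper9.AschU
open scoped Kronecker MatrixGroups

variable {F : Type*} [Field F] [Fintype F] {n q : ℕ}

local notation "f" => hermForm n F q

theorem hermForm_zero_right' (hF : Fintype.card F = q ^ 2) (v : Fin n → F) : f v 0 = 0 := by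
  have hq : q ≠ 0 := by
    have := two_le_of_card_sq hF
    omega
  simp [hermForm, hq]

theorem orth_symm (hF : Fintype.card F = q ^ 2) {W X : Submodule F (Fin n → F)}
    (h : AreOrthogonalFor f W X) : AreOrthogonalFor f X W :=
  fun u hu v hv => hermForm_eq_zero_swap hF (h v hv u hu)

theorem orth_sSup_right (hF : Fintype.card F = q ^ 2) (A : Submodule F (Fin n → F))
    (𝒯 : Set (Submodule F (Fin n → F))) (h : ∀ C ∈ 𝒯, AreOrthogonalFor f A C) :
    AreOrthogonalFor f A (sSup 𝒯) := by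
  intro u hu v hv
  rw [sSup_eq_iSup'] at hv
  refine Submodule.iSup_induction (fun C : 𝒯 => (C : Submodule F (Fin n → F)))
    (motive := fun v => f u v = 0) hv ?_ ?_ ?_
  · intro C y hy
    exact h C C.2 u hu y hy
  · exact hermForm_zero_right' hF u
  · intro y z hy hz
    rw [hermForm_add_right hF, hy, hz, add_zero]

theorem orth_sup (hF : Fintype.card F = q ^ 2) {A B X Y : Submodule F (Fin n → F)}
    (h1 : AreOrthogonalFor f A X) (h2 : AreOrthogonalFor f A Y) (h3 : AreOrthogonalFor f B X)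
    (h4 : AreOrthogonalFor f B Y) : AreOrthogonalFor f (A ⊔ B) (X ⊔ Y) := by
  intro u hu v hv
  obtain ⟨a, ha, b, hb, rfl⟩ := Submodule.mem_sup.1 hu
  obtain ⟨x, hx, y, hy, rfl⟩ := Submodule.mem_sup.1 hv
  rw [hermForm_add_left, hermForm_add_right hF, hermForm_add_right hF, h1 a ha x hx, h2 a ha y hy,
    h3 b hb x hx, h4 b hb y hy]
  simp

/-- pairwise orthogonal subspaces spanning the space are independent -/
theorem sSupIndep_of_orth (hF : Fintype.card F = q ^ 2) (𝒮 : Set (Submodule F (Fin n → F)))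
    (htop : sSup 𝒮 = ⊤)
    (horth : ∀ W ∈ 𝒮, ∀ X ∈ 𝒮, X ≠ W → AreOrthogonalFor f W X) : sSupIndep 𝒮 := by
  intro A hA
  rw [Submodule.disjoint_def]
  intro v hvA hvS
  by_contra hv0
  obtain ⟨x, hx⟩ := exists_hermForm_ne_zero (q := q) v hv0
  apply hx
  have h1 : AreOrthogonalFor f A (sSup (𝒮 \ {A})) :=
    orth_sSup_right hF A _ (fun C hC => horth A hA C hC.1 hC.2)
  have h2 : AreOrthogonalFor f (Submodule.span F {v}) (sSup 𝒮) := by
    apply orth_sSup_right hF
    intro C hC u hu y hy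
    obtain ⟨c, rfl⟩ := Submodule.mem_span_singleton.1 hu
    rw [hermForm_smul_left]
    by_cases hCA : C = A
    · subst hCA
      rw [hermForm_eq_zero_swap hF (h1 y hy v hvS), mul_zero]
    · rw [horth A hA C hC hCA v hvA y hy, mul_zero]
  rw [htop] at h2
  exact hermForm_eq_zero_swap hF (h2 v (Submodule.mem_span_singleton_self v) x trivial)

omit [Fintype F] in
theorem orth_map {H : Subgroup (GL (Fin n) F)} (hH : H ≤ GU n F q) {h : GL (Fin n) F} (hh : h ∈ H)
    {W X : Submodule F (Fin n → F)} :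
    AreOrthogonalFor f (W.map (Matrix.toLin' (h : Matrix (Fin n) (Fin n) F)))
      (X.map (Matrix.toLin' (h : Matrix (Fin n) (Fin n) F))) ↔ AreOrthogonalFor f W X := by
  have hinv : ∀ u v, f ((h : Matrix (Fin n) (Fin n) F) *ᵥ u) ((h : Matrix (Fin n) (Fin n) F) *ᵥ v) =
      f u v := fun u v => hH hh u v
  constructor
  · intro hyp u hu v hv
    rw [← hinv]
    exact hyp _ ⟨u, hu, rfl⟩ _ ⟨v, hv, rfl⟩
  · rintro hyp _ ⟨u, hu, rfl⟩ _ ⟨v, hv, rfl⟩
    rw [Matrix.toLin'_apply, Matrix.toLin'_apply, hinv]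
    exact hyp u hu v hv

/-- U2B -/
theorem ucls_of_paired_set (hF : Fintype.card F = q ^ 2) {H : Subgroup (GL (Fin n) F)}
    (hH : H ≤ GU n F q) (hirr : ActsIrreducibly (matrixSet H))
    (𝒟 : Set (Submodule F (Fin n → F))) (hne : ∀ W ∈ 𝒟, W ≠ ⊥) (hind : sSupIndep 𝒟)
    (h2 : ∃ W ∈ 𝒟, ∃ W' ∈ 𝒟, W ≠ W')
    (hperm : ∀ h ∈ H, ∀ W ∈ 𝒟, W.map (Matrix.toLin' (h : Matrix (Fin n) (Fin n) F)) ∈ 𝒟)
    (hpair : ∀ W ∈ 𝒟, ∃ W' ∈ 𝒟, ∀ X ∈ 𝒟, X ≠ W' → AreOrthogonalFor (hermForm n F q) W X) :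
    UCls n q H := by
  classical
  obtain ⟨t, m, D, hD, hHD, hmem, hinj, hsurj, horbit⟩ :=
    imprimitive_of_set' H hirr 𝒟 hne hind h2 hperm
  have hDtop : sSup 𝒟 = ⊤ := by
    rw [eq_top_iff, ← hD.iSup_eq_top]
    exact iSup_le fun i => le_sSup (hmem i)
  let p : Submodule F (Fin n → F) → Submodule F (Fin n → F) := fun W =>
    if hW : W ∈ 𝒟 then Classical.choose (hpair W hW) else W
  have P1 : ∀ W ∈ 𝒟, p W ∈ 𝒟 := by
    intro W hW
    simp only [p, dif_pos hW]
    exact (Classical.choose_spec (hpair W hW)).1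
  have P2 : ∀ W ∈ 𝒟, ∀ X ∈ 𝒟, X ≠ p W → AreOrthogonalFor f W X := by
    intro W hW X hX hne'
    simp only [p, dif_pos hW] at hne'
    exact (Classical.choose_spec (hpair W hW)).2 X hX hne'
  have P3 : ∀ W ∈ 𝒟, ¬ AreOrthogonalFor f W (p W) := by
    intro W hW hc
    have h1 : AreOrthogonalFor f W (sSup 𝒟) := by
      apply orth_sSup_right hF
      intro C hC
      by_cases hCp : C = p W
      · rw [hCp]; exact hc
      · exact P2 W hW C hC hCp
    rw [hDtop] at h1
    obtain ⟨w, hw, hw0⟩ := (Submodule.ne_bot_iff W).1 (hne W hW)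
    obtain ⟨x, hx⟩ := exists_hermForm_ne_zero (q := q) w hw0
    exact hx (hermForm_eq_zero_swap hF (h1 w hw x trivial))
  have P4 : ∀ W ∈ 𝒟, ∀ X ∈ 𝒟, ¬ AreOrthogonalFor f W X → X = p W := by
    intro W hW X hX hc
    by_contra hne'
    exact hc (P2 W hW X hX hne')
  have P6 : ∀ W ∈ 𝒟, p (p W) = W := by
    intro W hW
    exact (P4 (p W) (P1 W hW) W hW (fun hc => P3 W hW (orth_symm hF hc))).symm
  have P7 : ∀ h ∈ H, ∀ W ∈ 𝒟, p (W.map (Matrix.toLin' (h : Matrix (Fin n) (Fin n) F))) =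
      (p W).map (Matrix.toLin' (h : Matrix (Fin n) (Fin n) F)) := by
    intro h hh W hW
    exact (P4 _ (hperm h hh W hW) _ (hperm h hh _ (P1 W hW))
      (fun hc => P3 W hW ((orth_map hH hh).1 hc))).symm
  by_cases hcase : ∃ W₀ ∈ 𝒟, p W₀ = W₀
  · obtain ⟨W₀, hW₀, hp₀⟩ := hcase
    have hall : ∀ W ∈ 𝒟, p W = W := by
      intro W hW
      obtain ⟨h, hh, rfl⟩ := horbit W₀ hW₀ W hW
      rw [P7 h hh W₀ hW₀, hp₀]
    exact ucls_of_orth_set hF hH hirr 𝒟 hne hind h2 hperm
      (fun W hW X hX hXW => P2 W hW X hX (by rw [hall W hW]; exact hXW))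
  · push Not at hcase
    have hts : ∀ W ∈ 𝒟, AreOrthogonalFor f W W := fun W hW =>
      P2 W hW W hW (fun h => hcase W hW h.symm)
    by_cases ht2 : t = 2
    · subst ht2
      refine Or.inr (Or.inr (Or.inr (Or.inl ⟨m, D, ?_, hD, fun i => hts _ (hmem i), hHD⟩)))
      have h01 : Disjoint (D 0) (D 1) := hD.indep.pairwiseDisjoint (by decide)
      have hsup : D 0 ⊔ D 1 = ⊤ := by
        rw [← hD.iSup_eq_top]
        apply le_antisymm
        · exact sup_le (le_iSup D 0) (le_iSup D 1)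
        · refine iSup_le fun i => ?_
          fin_cases i
          · exact le_sup_left
          · exact le_sup_right
      have := Submodule.finrank_sup_add_finrank_inf_eq (D 0) (D 1)
      rw [hsup, disjoint_iff.1 h01, finrank_bot, finrank_top, hD.finrank_eq, hD.finrank_eq,
        Module.finrank_fin_fun] at this
      omega
    · have ht3 : 3 ≤ t := by
        have := hD.two_le
        omega
      let 𝒟₂ : Set (Submodule F (Fin n → F)) := {A | ∃ W ∈ 𝒟, A = W ⊔ p W}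
      have hne_of : ∀ W ∈ 𝒟, ∀ X ∈ 𝒟, X ≠ W → X ≠ p W → X ⊔ p X ≠ W ⊔ p W := by
        intro W hW X hX h1 h3 heq
        have hle : W ⊔ p W ≤ sSup (𝒟 \ {X}) :=
          sup_le (le_sSup ⟨hW, fun h => h1 h.symm⟩) (le_sSup ⟨P1 W hW, fun h => h3 h.symm⟩)
        have hXle : X ≤ sSup (𝒟 \ {X}) := (le_sup_left.trans heq.le).trans hle
        exact hne X hX (disjoint_self.1 ((hind hX).mono_right hXle))
      have horth2 : ∀ A ∈ 𝒟₂, ∀ B ∈ 𝒟₂, B ≠ A → AreOrthogonalFor f A B := by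
        rintro _ ⟨W, hW, rfl⟩ _ ⟨X, hX, rfl⟩ hBA
        have hXW : X ≠ W := by
          rintro rfl
          exact hBA rfl
        have hXpW : X ≠ p W := by
          rintro rfl
          apply hBA
          rw [P6 W hW, sup_comm]
        have hpXpW : p X ≠ p W := by
          intro h
          apply hXW
          rw [← P6 X hX, h, P6 W hW]
        have hpXW : p X ≠ W := by
          intro h
          apply hXpW
          rw [← P6 X hX, h]
        exact orth_sup hF (P2 W hW X hX hXpW) (P2 W hW _ (P1 X hX) hpXpW)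
          (P2 _ (P1 W hW) X hX (by rw [P6 W hW]; exact hXW))
          (P2 _ (P1 W hW) _ (P1 X hX) (by rw [P6 W hW]; exact hpXW))
      have htop2 : sSup 𝒟₂ = ⊤ := by
        rw [eq_top_iff, ← hDtop]
        exact sSup_le fun W hW => le_sup_left.trans (le_sSup ⟨W, hW, rfl⟩)
      refine ucls_of_orth_set hF hH hirr 𝒟₂ ?_ (sSupIndep_of_orth hF 𝒟₂ htop2 horth2) ?_ ?_ horth2
      · rintro _ ⟨W, hW, rfl⟩ hbot
        exact hne W hW (le_bot_iff.1 (hbot ▸ le_sup_left))
      · have h0 := hmem ⟨0, by omega⟩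
        have h1 := hmem ⟨1, by omega⟩
        have h2' := hmem ⟨2, by omega⟩
        have h10 : D ⟨1, by omega⟩ ≠ D ⟨0, by omega⟩ := fun h => by
          have := hinj h
          simp [Fin.ext_iff] at this
        have h20 : D ⟨2, by omega⟩ ≠ D ⟨0, by omega⟩ := fun h => by
          have := hinj h
          simp [Fin.ext_iff] at this
        have h21 : D ⟨2, by omega⟩ ≠ D ⟨1, by omega⟩ := fun h => by
          have := hinj h
          simp [Fin.ext_iff] at this
        by_cases hc : D ⟨1, by omega⟩ = p (D ⟨0, by omega⟩)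
        · exact ⟨_, ⟨_, h2', rfl⟩, _, ⟨_, h0, rfl⟩,
            hne_of _ h0 _ h2' h20 (fun h => h21 (h.trans hc.symm))⟩
        · exact ⟨_, ⟨_, h1, rfl⟩, _, ⟨_, h0, rfl⟩, hne_of _ h0 _ h1 h10 hc⟩
      · rintro h hh _ ⟨W, hW, rfl⟩
        exact ⟨_, hperm h hh W hW, by rw [Submodule.map_sup, P7 h hh W hW]⟩

end Cfsg.Agent.Lib.Helper62.AschU
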